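import Cfsg.Agent.H15.Sz12
import Cfsg.Agent.H18.Wedder
import Cfsg.Agent.H12.SBridge
import Cfsg.Agent.H27.F8

/-! An absolutely irreducible Suzuki subgroup of `Sp₄(q)` not defined over a proper subfield is `Sz(q)`. -/

set_option autoImplicit false
set_option linter.style.haveILetI false

namespace Cfsg.Agent.H18.S4

open Matrix Cfsg.Lie

theorem tr_sq {F : Type*} [Field F] [CharP F 2] (A : Matrix (Fin 4) (Fin 4) F) : (A ^ 2).trace = A.trace ^ 2 := by
  simp only [sq, trace, diag, mul_apply, Fin.sum_univ_four]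
  grind

theorem tr_pow {F : Type*} [Field F] [CharP F 2] (n : ℕ) (A : Matrix (Fin 4) (Fin 4) F) :
    (A ^ 2 ^ n).trace = A.trace ^ 2 ^ n := by
  induction n with
  | zero => simp
  | succ n ih => rw [pow_succ, pow_mul, pow_mul, tr_sq, ih]

theorem sz_conj_pow {G K : Type*} [Group G] [Field K] [CharP K 2] [Finite K] (M : H15.Sz.Model G K) {m : ℕ} (hm : 1 ≤ m)
    (hq : Nat.card K = 2 ^ (2 * m + 1)) {g : G} (h : Odd (orderOf g)) : IsConj g (g ^ 2 ^ (2 * m + 1)) := by
  by_cases h1 : g = 1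
  · simp [h1]
  have t : ∀ b, (M.mat (M.S 0 b * M.W)).trace = M.θ b := fun b => by
    rw [M.mat_mul, M.mat_S, M.mat_W]
    simp [H15.Sz.Tw.Sm, H15.Sz.Tw.N, H19.J4, trace, Fin.sum_univ_four]
  obtain ⟨_, ⟨b, rfl⟩, -, e⟩ := M.exists_ZW hm hq h1 h
  obtain ⟨_, ⟨c, rfl⟩, -, f⟩ := M.exists_ZW hm hq (g := g ^ 2 ^ (2 * m + 1)) (fun e => h1 (orderOf_eq_one_iff.1
    (((Nat.coprime_two_right.2 h).pow_right _).eq_one_of_dvd (orderOf_dvd_of_pow_eq_one e)))) (h.of_dvd_nat (orderOf_pow_dvd _))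
  obtain rfl : b = c := M.θ.injective (by
    obtain ⟨x, e⟩ := isConj_iff.1 e
    obtain ⟨y, f⟩ := isConj_iff.1 f
    have := Fintype.ofFinite K
    rw [← t, ← t, ← e, ← f, M.trace_conj, M.trace_conj, M.mat_pow, tr_pow, ← hq, Nat.card_eq_fintype_card,
      FiniteField.pow_card])
  exact e.trans f.symm

variable {F : Type*} [Field F] [CharP F 2] {P : Subgroup (GL (Fin 4) F)}

theorem card_dvd_sp [Finite F] (hP : P ≤ Sp4 F) : Nat.card P ∣ H12.spOrd (Nat.card F) 2 := by
  let σ : Fin 2 ⊕ Fin 2 ≃ Fin 4 := finSumFinEquiv.trans (Equiv.swap 2 3)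
  have e : J (Fin 2) F = (H19.J4 F).submatrix σ σ := by
    ext (i | i) (j | j) <;> fin_cases i <;> fin_cases j <;> simp [σ, J, H19.J4, CharTwo.neg_eq] <;> rfl
  let φ : P →* symplecticGroup (Fin 2) F := MonoidHom.mk' (fun g => ⟨g.1.1.submatrix σ σ, by
    rw [SymplecticGroup.mem_iff', e, transpose_submatrix, submatrix_mul_equiv, submatrix_mul_equiv, H19.sp4_mat (hP g.2)]⟩)
    fun g h => Subtype.ext (submatrix_mul_equiv _ _ _ σ _).symm
  have := Subgroup.card_dvd_of_injective φ fun g h t => Subtype.ext (Units.ext (by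
    simpa [φ] using congrArg (fun A : symplecticGroup (Fin 2) F => A.1.submatrix σ.symm σ.symm) t))
  rwa [H12.card_sp, Fintype.card_fin] at this

theorem card_le_of_pow [Fintype F] {k : ℕ} (hk : 1 < k) (h : ∀ x : F, x ^ k = x) : Fintype.card F ≤ k := by
  obtain ⟨g, e⟩ := IsCyclic.exists_ofOrder_eq_natCard (α := Fˣ)
  rw [Nat.card_units, Nat.card_eq_fintype_card] at e
  have := orderOf_le_of_pow_eq_one (x := g) (n := k - 1) (by omega) (mul_right_cancel (b := g) (by
    rw [← pow_succ, Nat.sub_add_cancel hk.le, one_mul]; exact Units.ext (h _)))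
  omega

theorem e1 [Fintype F] (hP : P ≤ Sp4 F) (hs : spanAlg F P = ⊤)
    (hn : ∀ F₀ : Subfield F, F₀ ≠ ⊤ → ¬ Geo.RealisableOver F₀ (Geo.matrixSet P)) (h : IsoSuzuki P) :
    ∃ m, 1 ≤ m ∧ Fintype.card F = 2 ^ (2 * m + 1) ∧ Nonempty (P ≃* Lie.Sz F (2 ^ (m + 1))) := by
  obtain ⟨K, _, _, m, hm, hK, ⟨e⟩⟩ := h
  have := H15.Sz.charP_two hK
  have := Fact.mk Nat.prime_two
  have M := H15.Sz.lieModel hm hK
  have hK' := Nat.card_eq_fintype_card.trans hK
  have a : ∀ x : F, x ^ 2 ^ (2 * m + 1) = x := fun x => by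
    have b : RingHom.eqLocusField (iterateFrobenius F 2 (2 * m + 1)) (RingHom.id F) = ⊤ := by_contra fun b =>
      hn _ b (realisableOver_of_trace hs _ fun g hg => show g.1.trace ^ 2 ^ (2 * m + 1) = g.1.trace by
        by_cases c : Odd (orderOf (e ⟨g, hg⟩))
        · obtain ⟨y, d⟩ := isConj_iff.1 (e.symm.toMonoidHom.map_isConj (sz_conj_pow M hm hK' c))
          have d : y.1 * g * y.1⁻¹ = g ^ 2 ^ (2 * m + 1) := by simpa using congrArg Subtype.val d
          rw [← tr_pow, ← Units.val_pow_eq_pow_val, ← d, Units.val_mul, Units.val_mul, trace_units_conj]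
        · have d : orderOf g ∣ 2 ^ 2 := by
            rw [show orderOf g = orderOf (e ⟨g, hg⟩) by rw [e.orderOf_eq, ← Subgroup.orderOf_coe]]
            rcases M.exists_four (by rintro t; simp [t] at c) c with t | t <;> rw [t] <;> decide
          have d' := tr_pow 2 g.1
          rw [← Units.val_pow_eq_pow_val, orderOf_dvd_iff_pow_eq_one.1 d, Units.val_one, trace_one, Fintype.card_fin,
            show ((4 : ℕ) : F) = 2 * 2 by norm_num, CharTwo.two_eq_zero, mul_zero] at d'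
          rw [pow_eq_zero_iff (by decide) |>.1 d'.symm, zero_pow (by positivity)])
    exact b.ge (Subfield.mem_top x)
  obtain ⟨⟨n, n0⟩, -, hF⟩ := FiniteField.card F 2
  simp only [PNat.mk_coe] at hF
  have b : n ≤ 2 * m + 1 := (Nat.pow_le_pow_iff_right one_lt_two).1 (hF ▸ card_le_of_pow (Nat.one_lt_two_pow (by omega)) a)
  have c : 2 * m + 1 ≤ 2 * n := by
    have c := (Subgroup.card_subgroup_dvd_card M.Q).trans (Nat.card_congr e.toEquiv ▸ card_dvd_sp hP)
    have o : ∀ i, (2 ^ ((2 * m + 1) * 2)).Coprime ((2 ^ n) ^ (2 * (i + 1)) - 1) := fun i => by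
      refine (Nat.coprime_two_left.2 (Nat.Even.sub_odd (Nat.one_le_pow _ _ (by positivity)) ?_ odd_one)).pow_left _
      exact (even_two.pow_of_ne_zero n0.ne').pow_of_ne_zero (by omega)
    rw [M.card_Q, hK', Nat.card_eq_fintype_card, hF, H12.spOrd, ← pow_mul] at c
    have := (Nat.pow_dvd_pow_iff_le_right one_lt_two).1 (pow_mul 2 n _ ▸
      (Nat.Coprime.prod_right fun i _ => o i).dvd_of_dvd_mul_right c)
    omega
  have d : n = 2 * m + 1 := by
    by_contra d
    obtain ⟨k, hk⟩ := Nat.exists_eq_add_of_le b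
    have := (Nat.pow_le_pow_iff_right one_lt_two).1 (hF ▸ card_le_of_pow (k := 2 ^ k) (Nat.one_lt_two_pow (by omega)) fun x => by
      have := a x
      rwa [hk, pow_add, pow_mul, ← hF, FiniteField.pow_card] at this)
    omega
  subst d
  obtain ⟨f⟩ := H12.nonempty_ringEquiv_of_natCard_eq (F := K) (K := F) (by rw [hK', Nat.card_eq_fintype_card, hF])
  exact ⟨m, hm, hF, ⟨e.trans (H27.Tl.szCongr f _)⟩⟩

end Cfsg.Agent.H18.S4
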